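import Mathlib
import Cfsg.Agent.Lib.CGT.Conj

/-! First-order statements about a small permutation group, checked by the kernel. -/

set_option autoImplicit false

namespace H10.FO

open H54

inductive Tm
  | v (i : ℕ)
  | one
  | mul (a b : Tm)
  | inv (a : Tm)
  | pow (a : Tm) (k : ℕ)

inductive Fm
  | eq (a b : Tm)
  | mem (a : Tm) (k : ℕ)
  | not (f : Fm)
  | and (f g : Fm)
  | or (f g : Fm)
  | imp (f g : Fm)
  | all (f : Fm)
  | allIn (k : ℕ) (f : Fm)
  | ex (l : List ℕ) (f : Fm)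

instance instMulTm : Mul Tm := ⟨Tm.mul⟩
instance instInvTm : Inv Tm := ⟨Tm.inv⟩
instance instOneTm : One Tm := ⟨Tm.one⟩
instance instPowTm : Pow Tm ℕ := ⟨Tm.pow⟩

def cons {α : Type*} (x : α) (e : ℕ → α) : ℕ → α := fun n => Nat.rec x (fun k _ => e k) n

variable {G Ω : Type*} [Group G] [MulAction G Ω]

def Tm.sem (e : ℕ → G) : Tm → G
  | .v i => e i
  | .one => 1
  | .mul a b => a.sem e * b.sem e
  | .inv a => (a.sem e)⁻¹
  | .pow a k => a.sem e ^ k

def Fm.sem (H : ℕ → Subgroup G) : Fm → (ℕ → G) → Prop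
  | .eq a b, e => a.sem e = b.sem e
  | .mem a k, e => a.sem e ∈ H k
  | .not f, e => ¬ f.sem H e
  | .and f g, e => f.sem H e ∧ g.sem H e
  | .or f g, e => f.sem H e ∨ g.sem H e
  | .imp f g, e => f.sem H e → g.sem H e
  | .all f, e => ∀ x, f.sem H (cons x e)
  | .allIn k f, e => ∀ x ∈ H k, f.sem H (cons x e)
  | .ex _ f, e => ∃ x, f.sem H (cons x e)

noncomputable def Tm.ev (c : Cfg) (e : ℕ → ℕ) (t : Tm) : ℕ :=
  Tm.rec (motive := fun _ => ℕ) e c.one (fun _ _ a b => force a fun a => force b fun b => c.mul a b)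
    (fun _ a => force a c.inv) (fun _ k a => force a fun a => powc c a k) t

/-- `ev f true e`: `f` holds; `ev f false e`: `f` fails -/
noncomputable def Fm.ev (c : Cfg) (ch : ℕ → Chain) (f : Fm) : Bool → (ℕ → ℕ) → Bool :=
  Fm.rec (motive := fun _ => Bool → (ℕ → ℕ) → Bool)
    (fun a b s e => sel s (eqc c (a.ev c e) (b.ev c e)) (bnot (eqc c (a.ev c e) (b.ev c e))))
    (fun a k s e => force (a.ev c e) (sel s (memb c (ch k)) (notMemb c (ch k))))
    (fun _ f s e => f (bnot s) e)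
    (fun _ _ f g s e => sel s (band (f true e) (g true e)) (bor (f false e) (g false e)))
    (fun _ _ f g s e => sel s (bor (f true e) (g true e)) (band (f false e) (g false e)))
    (fun _ _ f g s e => sel s (bor (f false e) (g true e)) (band (f true e) (g false e)))
    (fun _ f s e => band s (allElts c (fun p => f true (cons p e)) (ch 0) c.one))
    (fun k _ f s e => band s (allElts c (fun p => f true (cons p e)) (ch k) c.one))
    (fun l _ f s e => band s (anyL (fun p => band (f true (cons p e)) (memb c (ch 0) p)) l)) f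

variable {c : Cfg} {pt : ℕ → Ω}

def Env (c : Cfg) (pt : ℕ → Ω) (e : ℕ → G) (e' : ℕ → ℕ) : Prop := ∀ i, Rep c pt (e i) (e' i)

theorem Env.cons {e : ℕ → G} {e' : ℕ → ℕ} (h : Env c pt e e') {x : G} {p : ℕ} (r : Rep c pt x p) :
    Env c pt (cons x e) (cons p e')
  | 0 => r
  | i + 1 => h i

theorem Tm.rep (X : Ctx c pt) {e : ℕ → G} {e' : ℕ → ℕ} (h : Env c pt e e') :
    ∀ t : Tm, Rep c pt (t.sem e) (t.ev c e')
  | .v i => h i
  | .one => rep_one X
  | .mul a b => (a.rep X h).mul X (b.rep X h)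
  | .inv a => (a.rep X h).inv X
  | .pow a k => (a.rep X h).pow X k

structure Mdl (c : Cfg) (pt : ℕ → Ω) (ch : ℕ → Chain) (H : ℕ → Subgroup G) : Prop where
  X : Ctx c pt
  K : Kfix G c pt = ⊥
  good : ∀ k, Good c pt (ch k) (H k)
  top : H 0 = ⊤

theorem Mdl.sound' {ch : ℕ → Chain} {H : ℕ → Subgroup G} (m : Mdl c pt ch H) (f : Fm) :
    ∀ {e : ℕ → G} {e' : ℕ → ℕ}, Env c pt e e' →
      (f.ev c ch true e' = true → f.sem H e) ∧ (f.ev c ch false e' = true → ¬ f.sem H e) := by
  induction f with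
  | eq a b =>
    intro e e' h
    have := (a.rep m.X h).eqc_iff m.X m.K (b.rep m.X h)
    exact ⟨this.1, fun q r => (bnot_eq_true _).1 q (this.2 r)⟩
  | mem a k =>
    exact fun h => ⟨fun q => (m.good k).mem_of_memb m.X q (a.rep m.X h),
      fun q => (m.good k).not_mem_of_notMemb m.X q (a.rep m.X h)⟩
  | not f ih => exact fun h => ⟨(ih h).2, fun q r => r ((ih h).1 q)⟩
  | and f g i j =>
    exact fun h => ⟨fun q => ((band_eq_true _ _).1 q).imp (i h).1 (j h).1,
      fun q r => ((bor_eq_true _ _).1 q).elim (fun q => (i h).2 q r.1) fun q => (j h).2 q r.2⟩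
  | or f g i j =>
    exact fun h => ⟨fun q => ((bor_eq_true _ _).1 q).imp (i h).1 (j h).1, fun q r =>
      r.elim ((i h).2 ((band_eq_true _ _).1 q).1) ((j h).2 ((band_eq_true _ _).1 q).2)⟩
  | imp f g i j =>
    exact fun h => ⟨fun q r => ((bor_eq_true _ _).1 q).elim (fun q => absurd r ((i h).2 q)) (j h).1,
      fun q r => (j h).2 ((band_eq_true _ _).1 q).2 (r ((i h).1 ((band_eq_true _ _).1 q).1))⟩
  | all f ih =>
    refine fun h => ⟨fun q x => ?_, fun q => Bool.noConfusion q⟩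
    obtain ⟨p, r, q⟩ := (m.good 0).forall_of_allElts m.X q x (m.top ▸ Subgroup.mem_top x)
    exact (ih (h.cons r)).1 q
  | allIn k f ih =>
    refine fun h => ⟨fun q x hx => ?_, fun q => Bool.noConfusion q⟩
    obtain ⟨p, r, q⟩ := (m.good k).forall_of_allElts m.X q x hx
    exact (ih (h.cons r)).1 q
  | ex l f ih =>
    refine fun h => ⟨fun q => ?_, fun q => Bool.noConfusion q⟩
    obtain ⟨p, -, q⟩ := (anyL_iff _ _).1 q
    rw [band_eq_true] at q
    obtain ⟨x, -, r⟩ := (m.good 0).in_of_memb m.X q.2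
    exact ⟨x, (ih (h.cons r)).1 q.1⟩

theorem Mdl.sound {ch : ℕ → Chain} {H : ℕ → Subgroup G} (m : Mdl c pt ch H) {e : ℕ → G} {e' : ℕ → ℕ}
    (h : Env c pt e e') (f : Fm) (q : f.ev c ch true e' = true) : f.sem H e := (m.sound' f h).1 q

/-- the environment of a list of codes -/
noncomputable def envL (c : Cfg) (l : List ℕ) : ℕ → ℕ :=
  List.rec (motive := fun _ => ℕ → ℕ) (fun _ => c.one) (fun p _ ih => cons p ih) l

theorem Mdl.exists_env {ch : ℕ → Chain} {H : ℕ → Subgroup G} (m : Mdl c pt ch H) :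
    ∀ l : List ℕ, allL (memb c (ch 0)) l = true → ∃ e : ℕ → G, Env c pt e (envL c l)
  | [], _ => ⟨fun _ => 1, fun _ => rep_one m.X⟩
  | p :: l, h => by
    have h' : band (memb c (ch 0) p) (allL (memb c (ch 0)) l) = true := h
    rw [band_eq_true] at h'
    obtain ⟨e, he⟩ := m.exists_env l h'.2
    obtain ⟨x, -, r⟩ := (m.good 0).in_of_memb m.X h'.1
    exact ⟨_, he.cons r⟩

end H10.FO
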